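import Mathlib
import Cfsg.Prelude.Def_Involutions
import Cfsg.Agent.Lib.Helper9.StrEmb

set_option autoImplicit false

namespace Cfsg.Agent.Lib.Helper9

variable {G : Type*} [Group G] [Finite G]

/-- hypothesis: centralizers of involutions are elementary abelian 2-groups -/
def EACHyp (G : Type*) [Group G] : Prop :=
  ∀ t : G, orderOf t = 2 → IsMulCommutative (Subgroup.centralizer ({t} : Set G)) ∧
    ∀ c ∈ Subgroup.centralizer ({t} : Set G), c ^ 2 = 1

theorem eac_exists_central (T : Sylow 2 G) (hT : (T : Subgroup G) ≠ ⊥) :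
    ∃ z ∈ T, orderOf z = 2 ∧ ∀ x ∈ T, x * z = z * x := by
  haveI : Fact (Nat.Prime 2) := ⟨Nat.prime_two⟩
  haveI : Nontrivial (T : Subgroup G) := (Subgroup.nontrivial_iff_ne_bot _).2 hT
  have hnt := T.isPGroup'.center_nontrivial
  obtain ⟨c, hc⟩ := exists_ne (1 : Subgroup.center (T : Subgroup G))
  obtain ⟨k, hk⟩ := (IsPGroup.iff_orderOf.1 T.isPGroup') (c : (T : Subgroup G))
  have hc1 : (c : (T : Subgroup G)) ≠ 1 := fun h => hc (Subtype.ext h)
  have hk0 : k ≠ 0 := by
    rintro rfl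
    rw [pow_zero, orderOf_eq_one_iff] at hk
    exact hc1 hk
  obtain ⟨j, rfl⟩ := Nat.exists_eq_succ_of_ne_zero hk0
  refine ⟨(((c : (T : Subgroup G)) ^ (2 ^ j) : (T : Subgroup G)) : G), SetLike.coe_mem _, ?_, ?_⟩
  · rw [Subgroup.orderOf_coe, orderOf_pow_of_dvd (pow_ne_zero _ two_ne_zero)
      (by rw [hk]; exact pow_dvd_pow 2 (Nat.le_succ j)), hk, Nat.succ_eq_add_one, pow_succ]
    exact Nat.mul_div_cancel_left _ (pow_pos two_pos _)
  · intro x hx
    have h1 : (c : (T : Subgroup G)) ^ (2 ^ j) ∈ Subgroup.center (T : Subgroup G) :=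
      Subgroup.pow_mem _ c.2 _
    have h2 := (Subgroup.mem_center_iff.1 h1) ⟨x, hx⟩
    exact congrArg Subtype.val h2

theorem eac_sq (hC : EACHyp G) (T : Sylow 2 G) (hT : (T : Subgroup G) ≠ ⊥) :
    ∀ x ∈ T, x * x = 1 := by
  obtain ⟨z, -, hz, hzc⟩ := eac_exists_central T hT
  intro x hx
  rw [← pow_two]
  exact (hC z hz).2 x (Subgroup.mem_centralizer_singleton_iff.2 (hzc x hx))

theorem eac_comm (hC : EACHyp G) (T : Sylow 2 G) (hT : (T : Subgroup G) ≠ ⊥) :
    ∀ x ∈ T, ∀ y ∈ T, x * y = y * x := by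
  obtain ⟨z, -, hz, hzc⟩ := eac_exists_central T hT
  intro x hx y hy
  have := (hC z hz).1.is_comm.comm
    (⟨x, Subgroup.mem_centralizer_singleton_iff.2 (hzc x hx)⟩ : Subgroup.centralizer ({z} : Set G))
    ⟨y, Subgroup.mem_centralizer_singleton_iff.2 (hzc y hy)⟩
  exact congrArg Subtype.val this

theorem eac_orderOf (hC : EACHyp G) (T : Sylow 2 G) {t : G} (ht : t ∈ T) (ht1 : t ≠ 1) :
    orderOf t = 2 := by
  have hT : (T : Subgroup G) ≠ ⊥ := by
    intro h
    have : t ∈ (T : Subgroup G) := ht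
    rw [h, Subgroup.mem_bot] at this
    exact ht1 this
  exact orderOf_two_of (eac_sq hC T hT t ht) ht1

theorem eac_centralizer (hC : EACHyp G) (T : Sylow 2 G) {t : G} (ht : t ∈ T) (ht1 : t ≠ 1) :
    Subgroup.centralizer ({t} : Set G) = T := by
  have hT : (T : Subgroup G) ≠ ⊥ := by
    intro h
    have : t ∈ (T : Subgroup G) := ht
    rw [h, Subgroup.mem_bot] at this
    exact ht1 this
  have ho := eac_orderOf hC T ht ht1
  apply T.is_maximal'
  · rw [IsPGroup.iff_orderOf]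
    intro c
    have h2 : c ^ 2 = 1 := by
      ext; simpa using (hC t ho).2 c c.2
    have hd := orderOf_dvd_of_pow_eq_one h2
    rcases (Nat.dvd_prime Nat.prime_two).1 hd with h | h
    · exact ⟨0, by simpa using h⟩
    · exact ⟨1, by simpa using h⟩
  · intro x hx
    exact Subgroup.mem_centralizer_singleton_iff.2 (eac_comm hC T hT x hx t ht)

theorem eac_invol_mem (T : Sylow 2 G) {t : G} (ht : orderOf t = 2)
    (htN : t ∈ Subgroup.normalizer ((T : Subgroup G) : Set G)) : t ∈ T := by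
  have hp : IsPGroup 2 (Subgroup.zpowers t) := by
    haveI : Fact (Nat.Prime 2) := ⟨Nat.prime_two⟩
    rw [IsPGroup.iff_card]
    exact ⟨1, by rw [Nat.card_zpowers, ht, pow_one]⟩
  have h1 := hp.inf_normalizer_sylow T
  have h2 : t ∈ Subgroup.zpowers t ⊓ Subgroup.normalizer (T : Set G) :=
    ⟨Subgroup.mem_zpowers t, htN⟩
  rw [h1] at h2
  exact h2.2

theorem eac_TI (hC : EACHyp G) (T : Sylow 2 G) {t g : G} (ht : t ∈ T) (ht1 : t ≠ 1)
    (htg : g⁻¹ * t * g ∈ T) : g ∈ Subgroup.normalizer ((T : Subgroup G) : Set G) := by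
  have hT : (T : Subgroup G) ≠ ⊥ := by
    intro h
    have : t ∈ (T : Subgroup G) := ht
    rw [h, Subgroup.mem_bot] at this
    exact ht1 this
  have ht1' : g⁻¹ * t * g ≠ 1 := by
    intro h
    apply ht1
    have e : t = g * (g⁻¹ * t * g) * g⁻¹ := by simp [mul_assoc]
    rw [e, h]; simp
  have hc1 := eac_centralizer hC T ht ht1
  have hc2 := eac_centralizer hC T htg ht1'
  rw [Subgroup.mem_normalizer_iff]
  intro h
  constructor
  · intro hh
    have h1 := eac_comm hC T hT h hh _ htg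
    rw [← hc1, Subgroup.mem_centralizer_singleton_iff]
    calc g * h * g⁻¹ * t = g * (h * (g⁻¹ * t * g)) * g⁻¹ := by simp [mul_assoc]
      _ = g * ((g⁻¹ * t * g) * h) * g⁻¹ := by rw [h1]
      _ = t * (g * h * g⁻¹) := by simp [mul_assoc]
  · intro hh
    have h1 := eac_comm hC T hT _ hh t ht
    rw [← hc2, Subgroup.mem_centralizer_singleton_iff]
    calc h * (g⁻¹ * t * g) = g⁻¹ * (g * h * g⁻¹ * t) * g := by simp [mul_assoc]
      _ = g⁻¹ * (t * (g * h * g⁻¹)) * g := by rw [h1]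
      _ = g⁻¹ * t * g * h := by simp [mul_assoc]

theorem eac_ne_bot (T : Sylow 2 G) (hnc : ¬ IsCyclic (T : Subgroup G)) : (T : Subgroup G) ≠ ⊥ := by
  intro h
  apply hnc
  rw [h]
  infer_instance

theorem eac_stronglyEmbedded (hC : EACHyp G) (T : Sylow 2 G) (hnc : ¬ IsCyclic (T : Subgroup G))
    (hnn : ¬ (T : Subgroup G).Normal) :
    Cfsg.IsStronglyEmbedded (Subgroup.normalizer ((T : Subgroup G) : Set G)) := by
  haveI : Fact (Nat.Prime 2) := ⟨Nat.prime_two⟩
  have hT := eac_ne_bot T hnc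
  refine ⟨?_, ?_, ?_⟩
  · intro h; exact hnn (Subgroup.normalizer_eq_top_iff.1 h)
  · obtain ⟨z, hzT, hz, -⟩ := eac_exists_central T hT
    have hzN : z ∈ Subgroup.normalizer ((T : Subgroup G) : Set G) := Subgroup.le_normalizer hzT
    have hd : orderOf (⟨z, hzN⟩ : Subgroup.normalizer ((T : Subgroup G) : Set G)) ∣ _ :=
      orderOf_dvd_natCard _
    rw [Subgroup.orderOf_mk, hz] at hd
    exact even_iff_two_dvd.2 hd
  · intro g hg
    by_contra hodd
    rw [Nat.not_odd_iff_even] at hodd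
    obtain ⟨t, ht⟩ := exists_prime_orderOf_dvd_card' (G := ↥(Subgroup.normalizer ((T : Subgroup G) : Set G) ⊓
      (Subgroup.normalizer ((T : Subgroup G) : Set G)).map (MulAut.conj g).toMonoidHom)) 2
      (even_iff_two_dvd.1 hodd)
    have ht2 : orderOf (t : G) = 2 := by rw [Subgroup.orderOf_coe]; exact ht
    obtain ⟨h1, h2⟩ := Subgroup.mem_inf.1 t.2
    rw [mem_map_conj_iff] at h2
    have ht' : orderOf (g⁻¹ * (t : G) * g) = 2 := by
      have : g⁻¹ * (t : G) * g = MulAut.conj g⁻¹ (t : G) := by simp [MulAut.conj_apply]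
      rw [this, MulEquiv.orderOf_eq]; exact ht2
    exact hg (eac_TI hC T (eac_invol_mem T ht2 h1) (ne_one_of_orderOf_two ht2) (eac_invol_mem T ht' h2))

end Cfsg.Agent.Lib.Helper9
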