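import Mathlib
import Cfsg.Prelude.Def_Involutions
import Cfsg.Agent.Lib.Helper9.EAC
import Cfsg.Agent.S1224

set_option autoImplicit false

namespace Cfsg.Agent.Lib.Helper9

section se2

variable {G : Type*} [Group G] [Finite G] {H : Subgroup G}

theorem orderOf_conj_eq (g t : G) : orderOf (g * t * g⁻¹) = orderOf t := by
  have : g * t * g⁻¹ = MulAut.conj g t := by simp [MulAut.conj_apply]
  rw [this, MulEquiv.orderOf_eq]

theorem se_odd_of_fix_two (hH : Cfsg.IsStronglyEmbedded H) {d : G} {x y : G ⧸ H} (hxy : x ≠ y)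
    (hx : d • x = x) (hy : d • y = y) : Odd (orderOf d) := by
  by_contra hodd
  rw [Nat.not_odd_iff_even] at hodd
  obtain ⟨k, hk⟩ := hodd
  have hpos : 0 < orderOf d := orderOf_pos d
  have hk0 : k ≠ 0 := by omega
  have ho : orderOf (d ^ k) = 2 := by
    rw [orderOf_pow_of_dvd hk0 ⟨2, by omega⟩, hk]
    have : k + k = 2 * k := by ring
    rw [this]; exact Nat.mul_div_cancel _ (Nat.pos_of_ne_zero hk0)
  have h1 : d ^ k ∈ MulAction.stabilizer G x := Subgroup.pow_mem _ hx k
  have h2 : d ^ k ∈ MulAction.stabilizer G y := Subgroup.pow_mem _ hy k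
  exact hxy (se_fix_unique hH ho h1 h2)

theorem eq_one_of_odd_of_pow_two_pow {d : G} (hodd : Odd (orderOf d)) {k : ℕ} (h : d ^ (2 ^ k) = 1) :
    d = 1 := by
  have h1 : orderOf d ∣ 2 ^ k := orderOf_dvd_of_pow_eq_one h
  have h2 : Nat.Coprime (orderOf d) (2 ^ k) :=
    Nat.Coprime.pow_right k (Nat.Coprime.symm (Nat.coprime_two_left.2 hodd))
  have h3 : orderOf d = 1 := Nat.Coprime.eq_one_of_dvd h2 h1
  exact orderOf_eq_one_iff.1 h3

theorem se_exists_invol_fix (hH : Cfsg.IsStronglyEmbedded H) (y : G ⧸ H) :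
    ∃ r : G, orderOf r = 2 ∧ r • y = y := by
  obtain ⟨s, hsH, hs⟩ := se_exists_invol hH
  induction y using QuotientGroup.induction_on with
  | H g =>
  refine ⟨g * s * g⁻¹, by rw [orderOf_conj_eq]; exact hs, ?_⟩
  rw [smul_mk_eq_iff]; simpa [mul_assoc] using hsH

theorem se_swap (hH : Cfsg.IsStronglyEmbedded H) {x y : G ⧸ H} (hxy : x ≠ y) :
    ∃ i : G, orderOf i = 2 ∧ i • x = y ∧ i • y = x := by
  obtain ⟨s, hs, hsx⟩ := se_exists_invol_fix hH x
  obtain ⟨r, hr, hry⟩ := se_exists_invol_fix hH y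
  obtain ⟨i, hi, -, hix⟩ := se_conj hH hs hr hsx hry hxy
  refine ⟨i, hi, hix, ?_⟩
  rw [← hix, ← mul_smul, mul_self_of_orderOf_two hi, one_smul]

/-- `G_{xy}` is transitive on the involutions fixing `x`. -/
theorem se_trans (hH : Cfsg.IsStronglyEmbedded H) {x y : G ⧸ H} (hxy : x ≠ y) {s t : G}
    (hs : orderOf s = 2) (ht : orderOf t = 2) (hsx : s • x = x) (htx : t • x = x) :
    ∃ d : G, d • x = x ∧ d • y = y ∧ d * s * d⁻¹ = t := by
  obtain ⟨r, hr, hry⟩ := se_exists_invol_fix hH y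
  obtain ⟨i, hi, hic, hix⟩ := se_conj hH hs hr hsx hry hxy
  obtain ⟨i', hi', hic', hix'⟩ := se_conj hH ht hr htx hry hxy
  have hii := mul_self_of_orderOf_two hi
  have hii' := mul_self_of_orderOf_two hi'
  have hiy : i • y = x := by rw [← hix, ← mul_smul, hii, one_smul]
  have hiy' : i' • y = x := by rw [← hix', ← mul_smul, hii', one_smul]
  have hinv' := inv_eq_self_of_mul_self hii'
  refine ⟨i'⁻¹ * i, ?_, ?_, ?_⟩
  · rw [hinv', mul_smul, hix, hiy']
  · rw [hinv', mul_smul, hiy, hix']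
  · have : i'⁻¹ * (i * s * i⁻¹) * i' = t := by
      rw [hic, ← hic']; simp [mul_assoc]
    rw [← this]; simp [mul_assoc]

end se2

section eac2

variable {G : Type*} [Group G] [Finite G] (T : Sylow 2 G)

local notation "𝓗" => Subgroup.normalizer ((T : Subgroup G) : Set G)

/-- Two involutions with the same fixed point commute. -/
theorem eac_fix_comm (hC : EACHyp G) (hT : (T : Subgroup G) ≠ ⊥) {s t : G} (hs : orderOf s = 2)
    (ht : orderOf t = 2) {w : G ⧸ 𝓗} (hsw : s • w = w) (htw : t • w = w) : s * t = t * s := by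
  induction w using QuotientGroup.induction_on with
  | H g =>
  rw [smul_mk_eq_iff] at hsw htw
  have hs' : orderOf (g⁻¹ * s * g) = 2 := by
    have := orderOf_conj_eq g⁻¹ s; rw [inv_inv] at this; rw [this]; exact hs
  have ht' : orderOf (g⁻¹ * t * g) = 2 := by
    have := orderOf_conj_eq g⁻¹ t; rw [inv_inv] at this; rw [this]; exact ht
  have h := eac_comm hC T hT _ (eac_invol_mem T hs' hsw) _ (eac_invol_mem T ht' htw)
  have e1 : g⁻¹ * s * g * (g⁻¹ * t * g) = g⁻¹ * (s * t) * g := by simp [mul_assoc]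
  have e2 : g⁻¹ * t * g * (g⁻¹ * s * g) = g⁻¹ * (t * s) * g := by simp [mul_assoc]
  rw [e1, e2] at h
  exact mul_left_cancel (mul_right_cancel h)

theorem eac_free (hC : EACHyp G) (hH : Cfsg.IsStronglyEmbedded 𝓗) {x y : G ⧸ 𝓗} (hxy : x ≠ y)
    {s d : G} (hs : orderOf s = 2) (hdx : d • x = x) (hdy : d • y = y) (hds : d * s = s * d) :
    d = 1 := by
  have hodd := se_odd_of_fix_two hH hxy hdx hdy
  have h2 : d ^ 2 = 1 := (hC s hs).2 d (Subgroup.mem_centralizer_singleton_iff.2 hds)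
  exact eq_one_of_odd_of_pow_two_pow hodd (k := 1) (by simpa using h2)

/-- the key counting statement -/
theorem eac_count (hC : EACHyp G) (hH : Cfsg.IsStronglyEmbedded 𝓗) {x y : G ⧸ 𝓗} (hxy : x ≠ y)
    {v : G} (hv : orderOf v = 2) (hvx : v • x = y) :
    Nat.card ↥(MulAction.stabilizer G x ⊓ MulAction.stabilizer G y)
        = Nat.card {t : G // orderOf t = 2 ∧ t ∈ 𝓗} ∧
      ∀ d : G, d • x = x → d • y = y → v * d * v⁻¹ = d⁻¹ := by
  have hvv := mul_self_of_orderOf_two hv
  have hvi := inv_eq_self_of_mul_self hvv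
  have hvy : v • y = x := by rw [← hvx, ← mul_smul, hvv, one_smul]
  obtain ⟨s₀, hs₀, hs₀x⟩ := se_exists_invol_fix hH x
  have hJ := Cfsg.Agent.S1224.result _ hH x y hxy
  have hI := Cfsg.Agent.S1224.card_fix (H := 𝓗) x
  let f : {i : G // orderOf i = 2 ∧ i • x = y} → ↥(MulAction.stabilizer G x ⊓ MulAction.stabilizer G y) :=
    fun i => ⟨v * i.1, by
      refine Subgroup.mem_inf.2 ⟨?_, ?_⟩
      · rw [MulAction.mem_stabilizer_iff, mul_smul, i.2.2, hvy]
      · have hiy : i.1 • y = x := by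
          have h0 := i.2.2
          calc i.1 • y = i.1 • (i.1 • x) := by rw [h0]
            _ = x := by rw [← mul_smul, mul_self_of_orderOf_two i.2.1, one_smul]
        rw [MulAction.mem_stabilizer_iff, mul_smul, hiy, hvx]⟩
  have hf : Function.Injective f := by
    intro i i' h
    have : v * i.1 = v * i'.1 := congrArg Subtype.val h
    exact Subtype.ext (mul_left_cancel this)
  let g : ↥(MulAction.stabilizer G x ⊓ MulAction.stabilizer G y) → {i : G // orderOf i = 2 ∧ i • x = x} :=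
    fun d => ⟨d.1 * s₀ * d.1⁻¹, by rw [orderOf_conj_eq]; exact hs₀, by
      have hd : d.1 • x = x := (Subgroup.mem_inf.1 d.2).1
      have hd' : d.1⁻¹ • x = x := by
        have : d.1⁻¹ ∈ MulAction.stabilizer G x := Subgroup.inv_mem _ hd
        exact this
      rw [mul_smul, mul_smul, hd', hs₀x, hd]⟩
  have hg : Function.Injective g := by
    intro d d' h
    have h1 : d.1 * s₀ * d.1⁻¹ = d'.1 * s₀ * d'.1⁻¹ := congrArg Subtype.val h
    have hmem := Subgroup.mul_mem _ (Subgroup.inv_mem _ d'.2) d.2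
    have h2 : d'.1⁻¹ * d.1 = 1 := by
      apply eac_free T hC hH hxy hs₀ (Subgroup.mem_inf.1 hmem).1 (Subgroup.mem_inf.1 hmem).2
      calc d'.1⁻¹ * d.1 * s₀ = d'.1⁻¹ * (d.1 * s₀ * d.1⁻¹) * d.1 := by simp [mul_assoc]
        _ = d'.1⁻¹ * (d'.1 * s₀ * d'.1⁻¹) * d.1 := by rw [h1]
        _ = s₀ * (d'.1⁻¹ * d.1) := by simp [mul_assoc]
    exact Subtype.ext (inv_mul_eq_one.1 h2).symm
  have h1 := Nat.card_le_card_of_injective f hf
  have h2 := Nat.card_le_card_of_injective g hg
  rw [hJ] at h1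
  rw [hI] at h2
  have hcard := le_antisymm h2 h1
  refine ⟨hcard, ?_⟩
  have hfb : Function.Bijective f :=
    hf.bijective_of_nat_card_le (by rw [hJ, hcard])
  intro d hdx hdy
  obtain ⟨i, hi⟩ := hfb.2 ⟨d, Subgroup.mem_inf.2 ⟨hdx, hdy⟩⟩
  have hi' : v * i.1 = d := congrArg Subtype.val hi
  have hii := mul_self_of_orderOf_two i.2.1
  have e : i.1 = v * d := by rw [← hi', ← mul_assoc, hvv, one_mul]
  rw [e] at hii
  rw [hvi]
  apply eq_inv_of_mul_eq_one_left
  rw [← hii]; simp [mul_assoc]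

theorem eac_card_invol (hC : EACHyp G) :
    Nat.card {t : G // orderOf t = 2 ∧ t ∈ 𝓗} = Nat.card T - 1 := by
  have h1 : Nat.card {t : G // orderOf t = 2 ∧ t ∈ 𝓗} = Nat.card {t : T // t ≠ 1} := by
    apply Nat.card_congr
    refine ⟨fun t => ⟨⟨t.1, eac_invol_mem T t.2.1 t.2.2⟩, ?_⟩, fun t => ⟨t.1.1, ?_, ?_⟩, ?_, ?_⟩
    · intro h
      have : t.1 = 1 := congrArg Subtype.val h
      exact ne_one_of_orderOf_two t.2.1 this
    · exact eac_orderOf hC T t.1.2 (fun h => t.2 (Subtype.ext h))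
    · exact Subgroup.le_normalizer t.1.2
    · intro t; rfl
    · intro t; rfl
  rw [h1]
  haveI : Fintype T := Fintype.ofFinite _
  classical
  rw [Nat.card_eq_fintype_card, Nat.card_eq_fintype_card, Fintype.card_subtype_compl, Fintype.card_subtype_eq]
  rfl

/-- No non-identity element fixes three points. -/
theorem eac_three (hC : EACHyp G) (hT : (T : Subgroup G) ≠ ⊥) (hH : Cfsg.IsStronglyEmbedded 𝓗)
    {x y w : G ⧸ 𝓗} (hxy : x ≠ y) (hxw : x ≠ w) (hyw : y ≠ w) {d : G} (hdx : d • x = x)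
    (hdy : d • y = y) (hdw : d • w = w) : d = 1 := by
  have hodd := se_odd_of_fix_two hH hxy hdx hdy
  obtain ⟨u, hu, hux, huy⟩ := se_swap hH hxy
  obtain ⟨u', hu', hux', huw'⟩ := se_swap hH hxw
  obtain ⟨u'', hu'', huy'', huw''⟩ := se_swap hH hyw
  have h1 := (eac_count T hC hH hxy hu hux).2 d hdx hdy
  have h2 := (eac_count T hC hH hxw hu' hux').2 d hdx hdw
  have h3 := (eac_count T hC hH hyw hu'' huy'').2 d hdy hdw
  obtain ⟨e, he⟩ : ∃ e, e = u'' * u * u' := ⟨_, rfl⟩
  have hew : e • w = w := by rw [he, mul_smul, mul_smul, huw', hux, huy'']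
  have hinv : ∀ a : G, a * d * a⁻¹ = d⁻¹ → a * d⁻¹ * a⁻¹ = d := by
    intro a ha
    have : (a * d * a⁻¹)⁻¹ = d := by rw [ha, inv_inv]
    rw [mul_inv_rev, mul_inv_rev, inv_inv, ← mul_assoc] at this
    exact this
  have hed : e * d * e⁻¹ = d⁻¹ := by
    calc e * d * e⁻¹ = u'' * (u * (u' * d * u'⁻¹) * u⁻¹) * u''⁻¹ := by rw [he]; simp [mul_assoc]
      _ = u'' * (u * d⁻¹ * u⁻¹) * u''⁻¹ := by rw [h2]
      _ = u'' * d * u''⁻¹ := by rw [hinv u h1]
      _ = d⁻¹ := h3
  have hpow : ∀ k : ℕ, (Even k → e ^ k * d * (e ^ k)⁻¹ = d) ∧ (Odd k → e ^ k * d * (e ^ k)⁻¹ = d⁻¹) := by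
    intro k
    induction k with
    | zero => exact ⟨fun _ => by simp, fun h => by simp at h⟩
    | succ k ih =>
      have e1 : e ^ (k + 1) * d * (e ^ (k + 1))⁻¹ = e * (e ^ k * d * (e ^ k)⁻¹) * e⁻¹ := by
        rw [pow_succ']; simp [mul_assoc]
      constructor
      · intro hk
        have hk' : Odd k := by
          rcases Nat.even_or_odd k with h | h
          · exfalso; exact (Nat.not_even_iff_odd.2 (Even.add_one h)) hk
          · exact h
        rw [e1, ih.2 hk', hinv e hed]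
      · intro hk
        have hk' : Even k := by
          rcases Nat.even_or_odd k with h | h
          · exact h
          · exfalso; exact (Nat.not_odd_iff_even.2 (Odd.add_one h)) hk
        rw [e1, ih.1 hk', hed]
  have hsq : d = d⁻¹ → d = 1 := by
    intro h
    apply eq_one_of_odd_of_pow_two_pow hodd (k := 1)
    rw [pow_one, pow_two]
    nth_rewrite 2 [h]
    simp
  rcases Nat.even_or_odd (orderOf e) with hev | hod
  · obtain ⟨k, hk⟩ := hev
    have hpos : 0 < orderOf e := orderOf_pos e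
    have hk0 : k ≠ 0 := by omega
    have ho : orderOf (e ^ k) = 2 := by
      rw [orderOf_pow_of_dvd hk0 ⟨2, by omega⟩, hk]
      have : k + k = 2 * k := by ring
      rw [this]; exact Nat.mul_div_cancel _ (Nat.pos_of_ne_zero hk0)
    obtain ⟨i, hi⟩ : ∃ i, i = e ^ k := ⟨_, rfl⟩
    rw [← hi] at ho
    have hiw : i • w = w := by
      have : e ^ k ∈ MulAction.stabilizer G w := Subgroup.pow_mem _ hew k
      rw [hi]; exact this
    have hii := mul_self_of_orderOf_two ho
    rcases Nat.even_or_odd k with hk' | hk'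
    · have h4 := (hpow k).1 hk'
      rw [← hi] at h4
      have h5 : d * i = i * d := by
        calc d * i = i * d * i⁻¹ * i := by rw [h4]
          _ = i * d := by simp
      have h6 : d ^ 2 = 1 := (hC i ho).2 d (Subgroup.mem_centralizer_singleton_iff.2 h5)
      exact eq_one_of_odd_of_pow_two_pow hodd (k := 1) (by simpa using h6)
    · have h4 := (hpow k).2 hk'
      rw [← hi] at h4
      have h5 : i * d⁻¹ = d * i := by
        calc i * d⁻¹ = i * d⁻¹ * i⁻¹ * i := by simp
          _ = d * i := by rw [hinv i h4]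
      have h6 : d * i * d⁻¹ = d * d * i := by rw [mul_assoc, h5, mul_assoc]
      have ho' : orderOf (d * i * d⁻¹) = 2 := by rw [orderOf_conj_eq]; exact ho
      have hw' : (d * i * d⁻¹) • w = w := by
        have hd' : d⁻¹ • w = w := by
          have : d⁻¹ ∈ MulAction.stabilizer G w := Subgroup.inv_mem _ hdw
          exact this
        rw [mul_smul, mul_smul, hd', hiw, hdw]
      have h7 := eac_fix_comm T hC hT ho' ho hw' hiw
      rw [h6] at h7
      have h8 : d * d * i = i * (d * d) := by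
        have : d * d * i * i = i * (d * d * i) := h7
        rw [mul_assoc (d * d), hii, mul_one] at this
        calc d * d * i = i * (d * d * i) * i := by rw [← this]
          _ = i * (d * d) := by rw [mul_assoc, mul_assoc (d * d), hii, mul_one]
      have h9 : (d * d) ^ 2 = 1 := (hC i ho).2 _ (Subgroup.mem_centralizer_singleton_iff.2 h8)
      apply eq_one_of_odd_of_pow_two_pow hodd (k := 2)
      rw [← h9]; simp [pow_succ, mul_assoc]
  · have h4 := (hpow (orderOf e)).2 hod
    rw [pow_orderOf_eq_one] at h4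
    simp only [one_mul, inv_one, mul_one] at h4
    exact hsq h4

end eac2

end Cfsg.Agent.Lib.Helper9
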