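import Mathlib
import Cfsg.Prelude.Def_LieRecognition

set_option autoImplicit false

namespace Cfsg.Agent.Lib.Helper9

variable {G Ω : Type*} [Group G] [MulAction G Ω] {a : Ω} {t : G} {Q : Subgroup G}

theorem rankOne_t_inv (hS : Cfsg.IsRankOneSetup G Ω a t Q) : t⁻¹ = t :=
  inv_eq_of_mul_eq_one_left hS.mul_self

theorem rankOne_tt (hS : Cfsg.IsRankOneSetup G Ω a t Q) (y : G) : t * (t * y) = y := by
  rw [← mul_assoc, hS.mul_self, one_mul]

theorem rankOne_conj_D (hS : Cfsg.IsRankOneSetup G Ω a t Q) {h : G}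
    (hh : h ∈ MulAction.stabilizer G a ⊓ MulAction.stabilizer G (t • a)) :
    t * h * t ∈ MulAction.stabilizer G a ⊓ MulAction.stabilizer G (t • a) := by
  obtain ⟨h1, h2⟩ := Subgroup.mem_inf.1 hh
  rw [MulAction.mem_stabilizer_iff] at h1 h2
  apply Subgroup.mem_inf.2
  constructor
  · rw [MulAction.mem_stabilizer_iff, mul_smul, mul_smul, h2, ← mul_smul, hS.mul_self, one_smul]
  · rw [MulAction.mem_stabilizer_iff, mul_smul, mul_smul, ← mul_smul t t, hS.mul_self, one_smul, h1]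

theorem rankOne_unique (hS : Cfsg.IsRankOneSetup G Ω a t Q) {g h f g' h' f' : G}
    (hg : g ∈ Q) (hh : h ∈ MulAction.stabilizer G a ⊓ MulAction.stabilizer G (t • a)) (hf : f ∈ Q)
    (hg' : g' ∈ Q) (hh' : h' ∈ MulAction.stabilizer G a ⊓ MulAction.stabilizer G (t • a))
    (hf' : f' ∈ Q) (e : g * h * t * f = g' * h' * t * f') : g = g' ∧ h = h' ∧ f = f' := by
  have hti := rankOne_t_inv hS
  have hb : (g' * h')⁻¹ * (g * h) ∈ MulAction.stabilizer G a :=
    Subgroup.mul_mem _ (Subgroup.inv_mem _ (Subgroup.mul_mem _ (hS.le hg') hh'.1))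
      (Subgroup.mul_mem _ (hS.le hg) hh.1)
  have hq : f' * f⁻¹ = t * ((g' * h')⁻¹ * (g * h)) * t := by
    have e1 : (g' * h')⁻¹ * (g * h) * t = t * (f' * f⁻¹) := by
      calc (g' * h')⁻¹ * (g * h) * t = (g' * h')⁻¹ * (g * h * t * f) * f⁻¹ := by simp [mul_assoc]
        _ = (g' * h')⁻¹ * (g' * h' * t * f') * f⁻¹ := by rw [e]
        _ = t * (f' * f⁻¹) := by simp [mul_assoc]
    rw [mul_assoc t, e1, rankOne_tt hS]
  have hq1 : f' * f⁻¹ ∈ Q ⊓ MulAction.stabilizer G (t • a) := by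
    refine Subgroup.mem_inf.2 ⟨Q.mul_mem hf' (Q.inv_mem hf), ?_⟩
    rw [MulAction.mem_stabilizer_iff] at hb ⊢
    rw [hq, mul_smul, ← mul_smul t t, hS.mul_self, one_smul, mul_smul, hb]
  rw [hS.inf_eq_bot, Subgroup.mem_bot] at hq1
  have hff : f = f' := (mul_inv_eq_one.1 hq1).symm
  subst hff
  have e2 : g * h = g' * h' := mul_right_cancel (mul_right_cancel e)
  have hq2 : g'⁻¹ * g ∈ Q ⊓ MulAction.stabilizer G (t • a) := by
    refine Subgroup.mem_inf.2 ⟨Q.mul_mem (Q.inv_mem hg') hg, ?_⟩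
    have : g'⁻¹ * g = h' * h⁻¹ := by
      calc g'⁻¹ * g = g'⁻¹ * (g * h) * h⁻¹ := by simp [mul_assoc]
        _ = h' * h⁻¹ := by rw [e2]; simp
    rw [this]
    exact Subgroup.mul_mem _ hh'.2 (Subgroup.inv_mem _ hh.2)
  rw [hS.inf_eq_bot, Subgroup.mem_bot] at hq2
  have hgg : g = g' := (inv_mul_eq_one.1 hq2).symm
  subst hgg
  exact ⟨rfl, mul_left_cancel e2, rfl⟩

end Cfsg.Agent.Lib.Helper9
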