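import Mathlib
import Cfsg.Agent.Lib.Helper9.RankOne
import Cfsg.Agent.Lib.Helper9.SupNorm
import Cfsg.Agent.Lib.Helper9.Invol

set_option autoImplicit false

namespace Cfsg.Agent.Lib.Helper9.RO

open MulAction

variable {G Ω : Type*} [Group G] [MulAction G Ω] {a : Ω} {t : G} {Q : Subgroup G}

theorem two_trans (hS : Cfsg.IsRankOneSetup G Ω a t Q) {c d c' d' : Ω} (h : c ≠ d) (h' : c' ≠ d') :
    ∃ g : G, g • c = c' ∧ g • d = d' :=
  (is_two_pretransitive_iff.1 hS.two_transitive) h h'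

theorem b_ne (hS : Cfsg.IsRankOneSetup G Ω a t Q) : t • a ≠ a := by
  intro h; exact hS.not_mem (mem_stabilizer_iff.2 h)

theorem tb (hS : Cfsg.IsRankOneSetup G Ω a t Q) : t • t • a = a := by
  rw [← mul_smul, hS.mul_self, one_smul]

theorem trans (hS : Cfsg.IsRankOneSetup G Ω a t Q) (c d : Ω) : ∃ g : G, g • c = d := by
  by_cases h : c = d
  · exact ⟨1, by rw [one_smul, h]⟩
  · obtain ⟨g, hg, -⟩ := two_trans hS h (Ne.symm h)
    exact ⟨g, hg⟩

theorem Ga_le_normalizer (hS : Cfsg.IsRankOneSetup G Ω a t Q) :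
    stabilizer G a ≤ Subgroup.normalizer (Q : Set G) := by
  intro h hh
  rw [Subgroup.mem_normalizer_iff]
  intro x
  constructor
  · exact hS.conj_mem h hh x
  · intro hx
    have := hS.conj_mem h⁻¹ (Subgroup.inv_mem _ hh) _ hx
    simpa [mul_assoc] using this

/-- every element of `G_a` is `x d` with `x ∈ Q`, `d ∈ D` -/
theorem Ga_factor (hS : Cfsg.IsRankOneSetup G Ω a t Q) {h : G} (hh : h ∈ stabilizer G a) :
    ∃ x ∈ Q, ∃ d ∈ stabilizer G a ⊓ stabilizer G (t • a), x * d = h := by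
  rw [← hS.sup_eq] at hh
  exact (mem_sup_of_le_normalizer (inf_le_left.trans (Ga_le_normalizer hS))).1 hh

theorem semireg (hS : Cfsg.IsRankOneSetup G Ω a t Q) {x : G} (hx : x ∈ Q) {c : Ω} (hc : c ≠ a)
    (h : x • c = c) : x = 1 := by
  obtain ⟨g, hga, hgb⟩ := two_trans hS (b_ne hS).symm hc.symm
  have h1 : g⁻¹ * x * g⁻¹⁻¹ ∈ Q := hS.conj_mem g⁻¹ (Subgroup.inv_mem _ (mem_stabilizer_iff.2 hga)) x hx
  have h2 : g⁻¹ * x * g⁻¹⁻¹ ∈ Q ⊓ stabilizer G (t • a) := by
    refine Subgroup.mem_inf.2 ⟨h1, ?_⟩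
    rw [mem_stabilizer_iff, inv_inv, mul_smul, mul_smul, hgb, h, ← hgb, inv_smul_smul]
  rw [hS.inf_eq_bot, Subgroup.mem_bot, inv_inv] at h2
  have : x = g * (g⁻¹ * x * g) * g⁻¹ := by group
  rw [this, h2]; group

theorem Q_trans_b (hS : Cfsg.IsRankOneSetup G Ω a t Q) {c : Ω} (hc : c ≠ a) :
    ∃ x ∈ Q, x • (t • a) = c := by
  obtain ⟨g, hga, hgb⟩ := two_trans hS (b_ne hS).symm hc.symm
  obtain ⟨x, hx, d, hd, rfl⟩ := Ga_factor hS (mem_stabilizer_iff.2 hga)
  refine ⟨x, hx, ?_⟩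
  rw [← hgb, mul_smul, mem_stabilizer_iff.1 (Subgroup.mem_inf.1 hd).2]

theorem Q_trans (hS : Cfsg.IsRankOneSetup G Ω a t Q) {c d : Ω} (hc : c ≠ a) (hd : d ≠ a) :
    ∃ x ∈ Q, x • c = d := by
  obtain ⟨x, hx, rfl⟩ := Q_trans_b hS hc
  obtain ⟨y, hy, rfl⟩ := Q_trans_b hS hd
  exact ⟨y * x⁻¹, Q.mul_mem hy (Q.inv_mem hx), by rw [mul_smul, inv_smul_smul]⟩

theorem Q_unique (hS : Cfsg.IsRankOneSetup G Ω a t Q) {c : Ω} (hc : c ≠ a) {x y : G} (hx : x ∈ Q)
    (hy : y ∈ Q) (h : x • c = y • c) : x = y := by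
  have h1 : (y⁻¹ * x) • c = c := by rw [mul_smul, h, inv_smul_smul]
  have := semireg hS (Q.mul_mem (Q.inv_mem hy) hx) hc h1
  exact (inv_mul_eq_one.1 this).symm

theorem Q_fix (hS : Cfsg.IsRankOneSetup G Ω a t Q) {x : G} (hx : x ∈ Q) : x • a = a :=
  mem_stabilizer_iff.1 (hS.le hx)

theorem Q_smul_ne (hS : Cfsg.IsRankOneSetup G Ω a t Q) {x : G} (hx : x ∈ Q) {c : Ω} (hc : c ≠ a) :
    x • c ≠ a := by
  intro h
  apply hc
  rw [← Q_fix hS hx] at h
  exact smul_left_cancel x h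

theorem D_odd_elt [Finite G] (hS : Cfsg.IsRankOneSetup G Ω a t Q) {d : G}
    (hd : d ∈ stabilizer G a ⊓ stabilizer G (t • a)) (h : d * d = 1) : d = 1 := by
  have h1 : orderOf (⟨d, hd⟩ : ↥(stabilizer G a ⊓ stabilizer G (t • a))) ∣
      Nat.card ↥(stabilizer G a ⊓ stabilizer G (t • a)) := orderOf_dvd_natCard _
  have h2 : orderOf (⟨d, hd⟩ : ↥(stabilizer G a ⊓ stabilizer G (t • a))) ∣ 2 := by
    apply orderOf_dvd_of_pow_eq_one
    rw [pow_two]; exact Subtype.ext h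
  have h3 : orderOf (⟨d, hd⟩ : ↥(stabilizer G a ⊓ stabilizer G (t • a))) = 1 := by
    rcases (Nat.dvd_prime Nat.prime_two).1 h2 with h | h
    · exact h
    · exfalso
      rw [h] at h1
      exact (Nat.not_even_iff_odd.2 hS.odd_card) (even_iff_two_dvd.2 h1)
  rw [orderOf_eq_one_iff] at h3
  exact congrArg Subtype.val h3

/-- involutions of `G_a` lie in `Q` -/
theorem invol_mem_Q [Finite G] (hS : Cfsg.IsRankOneSetup G Ω a t Q) {s : G}
    (hs : s ∈ stabilizer G a) (hss : s * s = 1) : s ∈ Q := by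
  obtain ⟨x, hx, d, hd, rfl⟩ := Ga_factor hS hs
  have h1 : d * d ∈ Q := by
    have h2 : d * d = (d * x * d⁻¹)⁻¹ * x⁻¹ * (x * d * (x * d)) := by group
    rw [h2, hss, mul_one]
    exact Q.mul_mem (Q.inv_mem (hS.conj_mem d (Subgroup.mem_inf.1 hd).1 x hx)) (Q.inv_mem hx)
  have h3 : d * d ∈ Q ⊓ stabilizer G (t • a) :=
    Subgroup.mem_inf.2 ⟨h1, Subgroup.mul_mem _ (Subgroup.mem_inf.1 hd).2 (Subgroup.mem_inf.1 hd).2⟩
  rw [hS.inf_eq_bot, Subgroup.mem_bot] at h3
  rw [D_odd_elt hS hd h3, mul_one]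
  exact hx

/-- an involution has at most one fixed point -/
theorem invol_fix_unique [Finite G] (hS : Cfsg.IsRankOneSetup G Ω a t Q) {u : G} (hu1 : u ≠ 1)
    (huu : u * u = 1) {c d : Ω} (hc : u • c = c) (hd : u • d = d) : c = d := by
  obtain ⟨g, rfl⟩ := trans hS a c
  by_contra hne
  have h1 : g⁻¹ * u * g ∈ stabilizer G a := by
    rw [mem_stabilizer_iff, mul_smul, mul_smul, hc, inv_smul_smul]
  have h2 : g⁻¹ * u * g ∈ Q := invol_mem_Q hS h1 (by
    calc g⁻¹ * u * g * (g⁻¹ * u * g) = g⁻¹ * (u * u) * g := by group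
      _ = 1 := by rw [huu]; group)
  have h3 : g⁻¹ • d ≠ a := by
    intro h
    apply hne
    rw [← h, smul_inv_smul]
  have h4 := semireg hS h2 h3 (by rw [mul_smul, mul_smul, smul_inv_smul, hd])
  apply hu1
  have : u = g * (g⁻¹ * u * g) * g⁻¹ := by group
  rw [this, h4]; group

theorem finite_Omega [Finite G] (hS : Cfsg.IsRankOneSetup G Ω a t Q) : Finite Ω :=
  Finite.of_surjective (fun g : G => g • a) (fun c => trans hS a c)

theorem card_Omega [Finite G] (hS : Cfsg.IsRankOneSetup G Ω a t Q) :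
    Nat.card Ω = Nat.card Q + 1 := by
  classical
  haveI := finite_Omega hS
  have e : Q ≃ {c : Ω // c ≠ a} := Equiv.ofBijective
    (fun x => ⟨(x : G) • (t • a), Q_smul_ne hS x.2 (b_ne hS)⟩) (by
      constructor
      · intro x y h
        exact Subtype.ext (Q_unique hS (b_ne hS) x.2 y.2 (congrArg Subtype.val h))
      · rintro ⟨c, hc⟩
        obtain ⟨x, hx, h⟩ := Q_trans_b hS hc
        exact ⟨⟨x, hx⟩, Subtype.ext h⟩)
  rw [Nat.card_congr e]
  have h1 : Nat.card {c : Ω // c ≠ a} = Set.ncard ({a}ᶜ : Set Ω) := (Nat.card_coe_set_eq ({a}ᶜ : Set Ω))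
  rw [h1, ← Set.ncard_add_ncard_compl ({a} : Set Ω), Set.ncard_singleton, add_comm]

/-- an involution has a fixed point -/
theorem invol_fix_exists [Finite G] (hS : Cfsg.IsRankOneSetup G Ω a t Q) {u : G}
    (huu : u * u = 1) : ∃ c : Ω, u • c = c := by
  classical
  have hP : IsPGroup 2 (Subgroup.zpowers u) := by
    apply IsPGroup.of_card (n := if u = 1 then 0 else 1)
    rw [Nat.card_zpowers]
    split_ifs with h
    · rw [h, orderOf_one, pow_zero]
    · rw [pow_one]; exact orderOf_two_of huu h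
  have hodd : ¬ 2 ∣ Nat.card Ω := by
    rw [card_Omega hS]
    obtain ⟨k, hk⟩ := hS.even_card
    omega
  obtain ⟨c, hc⟩ := hP.nonempty_fixed_point_of_prime_not_dvd_card Ω hodd
  exact ⟨c, hc ⟨u, Subgroup.mem_zpowers u⟩⟩

/-- replacing `t` by another involution with the same effect on `a` -/
theorem of_swap (hS : Cfsg.IsRankOneSetup G Ω a t Q) {u : G} (huu : u * u = 1)
    (hua : u • a = t • a) : Cfsg.IsRankOneSetup G Ω a u Q where
  two_transitive := hS.two_transitive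
  mul_self := huu
  ne_one := by
    rintro rfl
    rw [one_smul] at hua
    exact b_ne hS hua.symm
  not_mem := by
    intro h
    rw [mem_stabilizer_iff, hua] at h
    exact b_ne hS h
  le := hS.le
  conj_mem := hS.conj_mem
  inf_eq_bot := by rw [hua]; exact hS.inf_eq_bot
  sup_eq := by rw [hua]; exact hS.sup_eq
  even_card := hS.even_card
  odd_card := by rw [hua]; exact hS.odd_card

theorem exists_invol [Finite G] (hS : Cfsg.IsRankOneSetup G Ω a t Q) :
    ∃ s ∈ Q, s ≠ 1 ∧ s * s = 1 := by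
  obtain ⟨x, hx⟩ := exists_prime_orderOf_dvd_card' (G := Q) 2 (even_iff_two_dvd.1 hS.even_card)
  refine ⟨x, x.2, ?_, ?_⟩
  · intro h
    have : x = 1 := Subtype.ext h
    rw [this, orderOf_one] at hx
    omega
  · have := mul_self_of_orderOf_two hx
    exact congrArg Subtype.val this

theorem card_Ga [Finite G] (hS : Cfsg.IsRankOneSetup G Ω a t Q) :
    Nat.card (stabilizer G a) = Nat.card Q * Nat.card ↥(stabilizer G a ⊓ stabilizer G (t • a)) := by
  have e : Q × ↥(stabilizer G a ⊓ stabilizer G (t • a)) ≃ stabilizer G a := Equiv.ofBijective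
    (fun p => ⟨(p.1 : G) * (p.2 : G), Subgroup.mul_mem _ (hS.le p.1.2) (Subgroup.mem_inf.1 p.2.2).1⟩) (by
      constructor
      · rintro ⟨⟨x, hx⟩, ⟨d, hd⟩⟩ ⟨⟨x', hx'⟩, ⟨d', hd'⟩⟩ h
        have h1 : x * d = x' * d' := congrArg Subtype.val h
        have h2 : x'⁻¹ * x = d' * d⁻¹ := by
          calc x'⁻¹ * x = x'⁻¹ * (x * d) * d⁻¹ := by group
            _ = d' * d⁻¹ := by rw [h1]; group
        have h3 : x'⁻¹ * x ∈ Q ⊓ stabilizer G (t • a) := by
          refine Subgroup.mem_inf.2 ⟨Q.mul_mem (Q.inv_mem hx') hx, ?_⟩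
          rw [h2]
          exact Subgroup.mul_mem _ (Subgroup.mem_inf.1 hd').2 (Subgroup.inv_mem _ (Subgroup.mem_inf.1 hd).2)
        rw [hS.inf_eq_bot, Subgroup.mem_bot] at h3
        have h4 : x = x' := (inv_mul_eq_one.1 h3).symm
        subst h4
        have h5 : d = d' := mul_left_cancel h1
        subst h5
        rfl
      · rintro ⟨h, hh⟩
        obtain ⟨x, hx, d, hd, rfl⟩ := Ga_factor hS hh
        exact ⟨(⟨x, hx⟩, ⟨d, hd⟩), rfl⟩)
  rw [← Nat.card_congr e, Nat.card_prod]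

theorem card_G [Finite G] (hS : Cfsg.IsRankOneSetup G Ω a t Q) :
    Nat.card G = Nat.card Q * Nat.card ↥(stabilizer G a ⊓ stabilizer G (t • a)) * (Nat.card Q + 1) := by
  have h1 := (stabilizer G a).card_mul_index
  rw [index_stabilizer, card_Ga hS] at h1
  have h2 : orbit G a = Set.univ := by
    ext c
    simp only [Set.mem_univ, iff_true]
    obtain ⟨g, rfl⟩ := trans hS a c
    exact mem_orbit a g
  rw [h2, Set.ncard_univ, card_Omega hS] at h1
  exact h1.symm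

end Cfsg.Agent.Lib.Helper9.RO
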