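import Mathlib
import Cfsg.Agent.Lib.Helper9.RankOne2

set_option autoImplicit false

namespace Cfsg.Agent.Lib.Helper9.RO

open MulAction

variable {G Ω : Type*} [Group G] [MulAction G Ω] {a : Ω} {t : G} {Q : Subgroup G}

/-- an element commuting with an involution fixes its fixed point -/
theorem comm_fix [Finite G] (hS : Cfsg.IsRankOneSetup G Ω a t Q) {z s : G} (hz1 : z ≠ 1)
    (hzz : z * z = 1) {c : Ω} (hc : z • c = c) (h : s * z = z * s) : s • c = c := by
  apply invol_fix_unique hS hz1 hzz _ hc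
  rw [← mul_smul, ← h, mul_smul, hc]

/-- two involutions with different fixed points have a product of odd order -/
theorem odd_order_mul [Finite G] (hS : Cfsg.IsRankOneSetup G Ω a t Q) {u v : G} (hu1 : u ≠ 1)
    (huu : u * u = 1) (hv1 : v ≠ 1) (hvv : v * v = 1) {c : Ω} (hc : u • c = c) (hd : v • c ≠ c) :
    Odd (orderOf (u * v)) := by
  by_contra hodd
  rw [Nat.not_odd_iff_even] at hodd
  obtain ⟨k, hk⟩ := hodd
  have hpos : 0 < orderOf (u * v) := orderOf_pos _
  obtain ⟨h1, h2, h3, h4⟩ := even_central huu hvv (k := k) (by omega) (by omega)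
  obtain ⟨e, he⟩ := invol_fix_exists hS h2
  have h5 : u • e = e := comm_fix hS h1 h2 he h3
  have h6 : v • e = e := comm_fix hS h1 h2 he h4
  have h7 : c = e := invol_fix_unique hS hu1 huu hc h5
  exact hd (by rw [h7]; exact h6)

theorem conj_of_fix_ne [Finite G] (hS : Cfsg.IsRankOneSetup G Ω a t Q) {u v : G} (hu1 : u ≠ 1)
    (huu : u * u = 1) (hv1 : v ≠ 1) (hvv : v * v = 1) {c : Ω} (hc : u • c = c) (hd : v • c ≠ c) :
    ∃ g : G, g * u * g⁻¹ = v := by
  obtain ⟨j, hj⟩ := odd_order_mul hS hu1 huu hv1 hvv hc hd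
  exact ⟨_, odd_conj huu hvv hj⟩

theorem invol_conj [Finite G] (hS : Cfsg.IsRankOneSetup G Ω a t Q) {u v : G} (hu1 : u ≠ 1)
    (huu : u * u = 1) (hv1 : v ≠ 1) (hvv : v * v = 1) : ∃ g : G, g * u * g⁻¹ = v := by
  obtain ⟨c, hc⟩ := invol_fix_exists hS huu
  by_cases hd : v • c = c
  · -- same fixed point: go through a third involution
    obtain ⟨e, hec⟩ : ∃ e : Ω, e ≠ c := by
      by_cases h : c = a
      · exact ⟨t • a, by rw [h]; exact b_ne hS⟩
      · exact ⟨a, fun h' => h h'.symm⟩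
    obtain ⟨h, hh⟩ := trans hS c e
    have hw1 : h * u * h⁻¹ ≠ 1 := by
      intro h'
      apply hu1
      have : u = h⁻¹ * (h * u * h⁻¹) * h := by group
      rw [this, h']; group
    have hww : h * u * h⁻¹ * (h * u * h⁻¹) = 1 := by
      calc h * u * h⁻¹ * (h * u * h⁻¹) = h * (u * u) * h⁻¹ := by group
        _ = 1 := by rw [huu]; group
    have hwe : (h * u * h⁻¹) • e = e := by
      rw [← hh, mul_smul, mul_smul, inv_smul_smul, hc]
    have hve : v • e ≠ e := by
      intro h'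
      exact hec (invol_fix_unique hS hv1 hvv h' hd)
    obtain ⟨g, hg⟩ := conj_of_fix_ne hS hw1 hww hv1 hvv hwe hve
    exact ⟨g * h, by rw [← hg]; group⟩
  · exact conj_of_fix_ne hS hu1 huu hv1 hvv hc hd

end Cfsg.Agent.Lib.Helper9.RO
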