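import Mathlib
import Cfsg.Agent.Lib.Helper9.RankOne3

set_option autoImplicit false

namespace Cfsg.Agent.Lib.Helper9.RO

open MulAction

variable {G Ω : Type*} [Group G] [MulAction G Ω] {a : Ω} {t : G} {Q : Subgroup G}

/-- The reflection interchanging two involutions with fixed points `b = t • a` and `a`. -/
theorem exists_swap [Finite G] (hS : Cfsg.IsRankOneSetup G Ω a t Q) {s₁ s' : G} (h11 : s₁ ≠ 1)
    (h12 : s₁ * s₁ = 1) (h1b : s₁ • (t • a) = t • a) (h21 : s' ≠ 1) (h22 : s' * s' = 1)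
    (h2a : s' • a = a) :
    ∃ ρ : G, ρ * ρ = 1 ∧ ρ • a = t • a ∧ ρ • (t • a) = a ∧ ρ * s₁ * ρ = s' ∧
      ∀ f : G, f * s₁ = s₁ * f → f * s' = s' * f → f * ρ = ρ * f := by
  have hne : s' • (t • a) ≠ t • a := by
    intro h
    exact b_ne hS (invol_fix_unique hS h21 h22 h h2a)
  obtain ⟨j, hj⟩ := odd_order_mul hS h11 h12 h21 h22 h1b hne
  have hc := odd_conj h12 h22 hj
  set g := (s₁ * s') ^ j with hg
  have hinv : s₁ * g * s₁ = g⁻¹ := conj_left_pow h12 h22 j
  have hρρ : g * s₁ * (g * s₁) = 1 := by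
    calc g * s₁ * (g * s₁) = g * (s₁ * g * s₁) := by group
      _ = 1 := by rw [hinv, mul_inv_cancel]
  have hρinv : (g * s₁)⁻¹ = g * s₁ := inv_eq_of_mul_eq_one_left hρρ
  have hconj : g * s₁ * s₁ * (g * s₁) = s' := by
    have : g * s₁ * s₁ * (g * s₁) = g * s₁ * s₁ * (g * s₁)⁻¹ := by rw [hρinv]
    rw [this, mul_inv_rev, inv_eq_self_of_mul_self h12, ← hc]
    calc g * s₁ * s₁ * (s₁ * g⁻¹) = g * (s₁ * s₁) * s₁ * g⁻¹ := by group
      _ = g * s₁ * g⁻¹ := by rw [h12, mul_one]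
  have hb : (g * s₁) • (t • a) = a := by
    apply invol_fix_unique hS h21 h22 _ h2a
    rw [← hconj]
    rw [mul_smul (g * s₁ * s₁), ← mul_smul (g * s₁) (g * s₁), hρρ, one_smul, mul_smul, h1b]
  refine ⟨g * s₁, hρρ, ?_, hb, hconj, ?_⟩
  · conv_lhs => rw [← hb]
    rw [← mul_smul, hρρ, one_smul]
  · intro f hf1 hf2
    have h1 : Commute f (s₁ * s') := (show Commute f s₁ from hf1).mul_right hf2
    have h2 : Commute f g := h1.pow_right j
    exact (h2.mul_right hf1).eq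

theorem swap_unique [Finite G] (hS : Cfsg.IsRankOneSetup G Ω a t Q) {s₁ s' : G} (h11 : s₁ ≠ 1)
    (h12 : s₁ * s₁ = 1) (h1b : s₁ • (t • a) = t • a) (h21 : s' ≠ 1) (h22 : s' * s' = 1)
    (h2a : s' • a = a) {u u' : G} (hu : u * u = 1) (hua : u • a = t • a) (huc : u * s₁ * u = s')
    (hu' : u' * u' = 1) (hua' : u' • a = t • a) (huc' : u' * s₁ * u' = s') : u = u' := by
  obtain ⟨ρ, hρρ, hρa, hρb, hρc, hρf⟩ := exists_swap hS h11 h12 h1b h21 h22 h2a
  have key : ∀ v : G, v * v = 1 → v • a = t • a → v * s₁ * v = s' → v = ρ := by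
    intro v hv hva hvc
    have hvb : v • (t • a) = a := by rw [← hva, ← mul_smul, hv, one_smul]
    have hfD : v * ρ ∈ stabilizer G a ⊓ stabilizer G (t • a) := by
      refine Subgroup.mem_inf.2 ⟨?_, ?_⟩
      · rw [mem_stabilizer_iff, mul_smul, hρa, hvb]
      · rw [mem_stabilizer_iff, mul_smul, hρb, hva]
    have hvc' : v * s' * v = s₁ := by
      rw [← hvc]
      calc v * (v * s₁ * v) * v = (v * v) * s₁ * (v * v) := by group
        _ = s₁ := by rw [hv, one_mul, mul_one]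
    have hρc' : ρ * s' * ρ = s₁ := by
      rw [← hρc]
      calc ρ * (ρ * s₁ * ρ) * ρ = (ρ * ρ) * s₁ * (ρ * ρ) := by group
        _ = s₁ := by rw [hρρ, one_mul, mul_one]
    have c1 : v * ρ * s₁ = s₁ * (v * ρ) := by
      calc v * ρ * s₁ = v * ρ * s₁ * (ρ * ρ) := by rw [hρρ, mul_one]
        _ = v * (ρ * s₁ * ρ) * ρ := by group
        _ = (v * s' * v) * (v * ρ) := by
            rw [hρc, mul_assoc (v * s'), ← mul_assoc v v, hv, one_mul, mul_assoc]
        _ = _ := by rw [hvc']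
    have c2 : v * ρ * s' = s' * (v * ρ) := by
      calc v * ρ * s' = v * ρ * s' * (ρ * ρ) := by rw [hρρ, mul_one]
        _ = v * (ρ * s' * ρ) * ρ := by group
        _ = (v * s₁ * v) * (v * ρ) := by
            rw [hρc', mul_assoc (v * s₁), ← mul_assoc v v, hv, one_mul, mul_assoc]
        _ = _ := by rw [hvc]
    have c3 := hρf _ c1 c2
    have h4 : v * ρ * (v * ρ) = 1 := by
      calc v * ρ * (v * ρ) = v * (ρ * (v * ρ)) := by group
        _ = v * (v * ρ * ρ) := by rw [c3]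
        _ = (v * v) * (ρ * ρ) := by group
        _ = 1 := by rw [hv, hρρ, one_mul]
    have h5 := D_odd_elt hS hfD h4
    calc v = v * (ρ * ρ) := by rw [hρρ, mul_one]
      _ = (v * ρ) * ρ := by group
      _ = ρ := by rw [h5, one_mul]
  rw [key u hu hua huc, key u' hu' hua' huc']

theorem mem_K_iff {D : Subgroup G} {x : G} (ht : t * t = 1) :
    x ∈ Cfsg.invertedBy D t ↔ x ∈ D ∧ t * x * t = x⁻¹ := by
  unfold Cfsg.invertedBy
  rw [Set.mem_ofPred_eq, inv_eq_self_of_mul_self ht]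

/-- transitivity of `K` on the involutions of `G_a` -/
theorem K_trans [Finite G] (hS : Cfsg.IsRankOneSetup G Ω a t Q) {s s' : G}
    (hs : s ∈ Cfsg.involutionsIn (stabilizer G a : Set G))
    (hs' : s' ∈ Cfsg.involutionsIn (stabilizer G a : Set G)) :
    ∃ k ∈ Cfsg.invertedBy (stabilizer G a ⊓ stabilizer G (t • a)) t, k⁻¹ * s * k = s' := by
  obtain ⟨hsa, hs1, hss⟩ := hs
  obtain ⟨hsa', hs1', hss'⟩ := hs'
  have htt := hS.mul_self
  have h11 : t * s * t ≠ 1 := by
    intro h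
    apply hs1
    calc s = (t * t) * s * (t * t) := by rw [htt, one_mul, mul_one]
      _ = t * (t * s * t) * t := by group
      _ = 1 := by rw [h, mul_one, htt]
  have h12 : t * s * t * (t * s * t) = 1 := by
    calc t * s * t * (t * s * t) = t * s * (t * t) * s * t := by group
      _ = t * (s * s) * t := by rw [htt, mul_one]; group
      _ = 1 := by rw [hss, mul_one, htt]
  have h1b : (t * s * t) • (t • a) = t • a := by
    rw [mul_smul, tb hS, mul_smul, mem_stabilizer_iff.1 hsa]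
  obtain ⟨ρ, hρρ, hρa, hρb, hρc, -⟩ := exists_swap hS h11 h12 h1b hs1' hss' (mem_stabilizer_iff.1 hsa')
  have hρinv : ρ⁻¹ = ρ := inv_eq_of_mul_eq_one_left hρρ
  have htinv : t⁻¹ = t := inv_eq_of_mul_eq_one_left htt
  refine ⟨t * ρ, (mem_K_iff htt).2 ⟨Subgroup.mem_inf.2 ⟨?_, ?_⟩, ?_⟩, ?_⟩
  · rw [mem_stabilizer_iff, mul_smul, hρa, tb hS]
  · rw [mem_stabilizer_iff, mul_smul, hρb]
  · rw [mul_inv_rev, hρinv, htinv, ← mul_assoc, htt, one_mul]
  · rw [mul_inv_rev, hρinv, htinv, ← hρc]; group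

/-- `k ↦ k⁻¹ s k` is injective on `K` -/
theorem K_inj [Finite G] (hS : Cfsg.IsRankOneSetup G Ω a t Q) {s : G}
    (hs : s ∈ Cfsg.involutionsIn (stabilizer G a : Set G)) {k k' : G}
    (hk : k ∈ Cfsg.invertedBy (stabilizer G a ⊓ stabilizer G (t • a)) t)
    (hk' : k' ∈ Cfsg.invertedBy (stabilizer G a ⊓ stabilizer G (t • a)) t)
    (h : k⁻¹ * s * k = k'⁻¹ * s * k') : k = k' := by
  obtain ⟨hsa, hs1, hss⟩ := hs
  have htt := hS.mul_self
  rw [mem_K_iff htt] at hk hk'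
  obtain ⟨hkD, hkt⟩ := hk
  obtain ⟨hkD', hkt'⟩ := hk'
  have h11 : t * s * t ≠ 1 := by
    intro h
    apply hs1
    calc s = (t * t) * s * (t * t) := by rw [htt, one_mul, mul_one]
      _ = t * (t * s * t) * t := by group
      _ = 1 := by rw [h, mul_one, htt]
  have h12 : t * s * t * (t * s * t) = 1 := by
    calc t * s * t * (t * s * t) = t * s * (t * t) * s * t := by group
      _ = t * (s * s) * t := by rw [htt, mul_one]; group
      _ = 1 := by rw [hss, mul_one, htt]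
  have h1b : (t * s * t) • (t • a) = t • a := by
    rw [mul_smul, tb hS, mul_smul, mem_stabilizer_iff.1 hsa]
  have gen : ∀ k : G, k ∈ stabilizer G a ⊓ stabilizer G (t • a) → t * k * t = k⁻¹ →
      (t * k) * (t * k) = 1 ∧ (t * k) • a = t • a ∧ (t * k) * (t * s * t) * (t * k) = k⁻¹ * s * k := by
    intro k hkD hkt
    refine ⟨?_, ?_, ?_⟩
    · calc t * k * (t * k) = (t * k * t) * k := by group
        _ = 1 := by rw [hkt, inv_mul_cancel]
    · rw [mul_smul, mem_stabilizer_iff.1 (Subgroup.mem_inf.1 hkD).1]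
    · calc t * k * (t * s * t) * (t * k) = (t * k * t) * s * (t * t) * k := by group
        _ = _ := by rw [hkt, htt, mul_one]
  obtain ⟨a1, a2, a3⟩ := gen k hkD hkt
  obtain ⟨b1, b2, b3⟩ := gen k' hkD' hkt'
  have h21 : k⁻¹ * s * k ≠ 1 := by
    intro h'
    apply hs1
    calc s = k * (k⁻¹ * s * k) * k⁻¹ := by group
      _ = 1 := by rw [h']; group
  have h22 : k⁻¹ * s * k * (k⁻¹ * s * k) = 1 := by
    calc k⁻¹ * s * k * (k⁻¹ * s * k) = k⁻¹ * (s * s) * k := by group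
      _ = 1 := by rw [hss]; group
  have h2a : (k⁻¹ * s * k) • a = a := by
    have hka := mem_stabilizer_iff.1 (Subgroup.mem_inf.1 hkD).1
    rw [mul_smul, mul_smul, hka, mem_stabilizer_iff.1 hsa]
    conv_lhs => rw [← hka]
    rw [inv_smul_smul]
  have := swap_unique hS h11 h12 h1b h21 h22 h2a a1 a2 a3 b1 b2 (b3.trans h.symm)
  exact mul_left_cancel this

end Cfsg.Agent.Lib.Helper9.RO
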