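import Mathlib
import Cfsg.Agent.Lib.Helper9.RankOne4

set_option autoImplicit false

namespace Cfsg.Agent.Lib.Helper9.RO

open MulAction

variable {G Ω : Type*} [Group G] [MulAction G Ω] {a : Ω} {t : G} {Q : Subgroup G}

theorem third {α : Type*} {p₁ p₂ p₃ : α} (d e : α) (h12 : p₁ ≠ p₂) (h13 : p₁ ≠ p₃) (h23 : p₂ ≠ p₃) :
    (p₁ ≠ d ∧ p₁ ≠ e) ∨ (p₂ ≠ d ∧ p₂ ≠ e) ∨ (p₃ ≠ d ∧ p₃ ≠ e) := by
  grind

/-- the stabilizer in `C(X)` of a fixed point `h • a` of `X` is transitive on the other fixed points -/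
theorem cent_trans_at (hS : Cfsg.IsRankOneSetup G Ω a t Q) (X : Set G) (h : G)
    (hc : ∀ x ∈ X, x • (h • a) = h • a) {d e : Ω} (hd : ∀ x ∈ X, x • d = d) (he : ∀ x ∈ X, x • e = e)
    (hdc : d ≠ h • a) (hec : e ≠ h • a) :
    ∃ q ∈ Q, h * q * h⁻¹ ∈ Subgroup.centralizer X ∧ (h * q * h⁻¹) • d = e := by
  have hd' : h⁻¹ • d ≠ a := fun h' => hdc (by rw [← h', smul_inv_smul])
  have he' : h⁻¹ • e ≠ a := fun h' => hec (by rw [← h', smul_inv_smul])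
  obtain ⟨q, hq, hqd⟩ := Q_trans hS hd' he'
  refine ⟨q, hq, ?_, ?_⟩
  · rw [Subgroup.mem_centralizer_iff]
    intro x hx
    have hx' : h⁻¹ * x * h ∈ stabilizer G a := by
      rw [mem_stabilizer_iff, mul_smul, mul_smul, hc x hx, inv_smul_smul]
    have h1 : (h⁻¹ * x * h) * q * (h⁻¹ * x * h)⁻¹ ∈ Q := hS.conj_mem _ hx' q hq
    have hxinv : x⁻¹ • d = d := by rw [inv_smul_eq_iff, hd x hx]
    have h2 : ((h⁻¹ * x * h) * q * (h⁻¹ * x * h)⁻¹) • (h⁻¹ • d) = q • (h⁻¹ • d) := by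
      have e1 : (h⁻¹ * x * h)⁻¹ • (h⁻¹ • d) = h⁻¹ • d := by
        rw [mul_inv_rev, mul_inv_rev, inv_inv, mul_smul, mul_smul, smul_inv_smul, hxinv]
      rw [mul_smul, e1, mul_smul, hqd, mul_smul, mul_smul, smul_inv_smul, he x hx]
    have h3 := Q_unique hS hd' h1 hq h2
    calc x * (h * q * h⁻¹) = h * ((h⁻¹ * x * h) * q * (h⁻¹ * x * h)⁻¹) * h⁻¹ * x := by group
      _ = h * q * h⁻¹ * x := by rw [h3]
  · rw [mul_smul, mul_smul, hqd, smul_inv_smul]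

theorem cent_smul_fixed {X : Set G} {g : G} (hg : g ∈ Subgroup.centralizer X) {d : Ω}
    (hd : ∀ x ∈ X, x • d = d) : ∀ x ∈ X, x • (g • d) = g • d := by
  intro x hx
  rw [Subgroup.mem_centralizer_iff] at hg
  rw [← mul_smul, hg x hx, mul_smul, hd x hx]

theorem cent_trans (hS : Cfsg.IsRankOneSetup G Ω a t Q) (X : Set G)
    (h3 : ∃ b c d : Ω, b ≠ c ∧ b ≠ d ∧ c ≠ d ∧ ∀ x ∈ X, x • b = b ∧ x • c = c ∧ x • d = d)
    {d e : Ω} (hd : ∀ x ∈ X, x • d = d) (he : ∀ x ∈ X, x • e = e) :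
    ∃ g ∈ Subgroup.centralizer X, g • d = e := by
  obtain ⟨p₁, p₂, p₃, h12, h13, h23, hp⟩ := h3
  obtain ⟨c, hcX, hcd, hce⟩ : ∃ c : Ω, (∀ x ∈ X, x • c = c) ∧ c ≠ d ∧ c ≠ e := by
    rcases third d e h12 h13 h23 with h | h | h
    · exact ⟨p₁, fun x hx => (hp x hx).1, h.1, h.2⟩
    · exact ⟨p₂, fun x hx => (hp x hx).2.1, h.1, h.2⟩
    · exact ⟨p₃, fun x hx => (hp x hx).2.2, h.1, h.2⟩
  obtain ⟨h, rfl⟩ := trans hS a c
  obtain ⟨q, -, h1, h2⟩ := cent_trans_at hS X h hcX hd he hcd.symm hce.symm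
  exact ⟨_, h1, h2⟩

theorem cent_two_trans (hS : Cfsg.IsRankOneSetup G Ω a t Q) (X : Set G)
    (h3 : ∃ b c d : Ω, b ≠ c ∧ b ≠ d ∧ c ≠ d ∧ ∀ x ∈ X, x • b = b ∧ x • c = c ∧ x • d = d)
    {b₁ b₂ c₁ c₂ : Ω} (hb₁ : ∀ x ∈ X, x • b₁ = b₁) (hb₂ : ∀ x ∈ X, x • b₂ = b₂)
    (hc₁ : ∀ x ∈ X, x • c₁ = c₁) (hc₂ : ∀ x ∈ X, x • c₂ = c₂) (hb : b₁ ≠ b₂) (hc : c₁ ≠ c₂) :
    ∃ g ∈ Subgroup.centralizer X, g • b₁ = c₁ ∧ g • b₂ = c₂ := by
  obtain ⟨g₁, hg₁, h1⟩ := cent_trans hS X h3 hb₁ hc₁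
  obtain ⟨h, hh⟩ := trans hS a c₁
  subst hh
  have h2 : g₁ • b₂ ≠ h • a := by
    rw [← h1]
    exact fun h' => hb (smul_left_cancel g₁ h').symm
  obtain ⟨q, hq, h4, h5⟩ := cent_trans_at hS X h hc₁ (cent_smul_fixed hg₁ hb₂) hc₂ h2 hc.symm
  refine ⟨h * q * h⁻¹ * g₁, Subgroup.mul_mem _ h4 hg₁, ?_, ?_⟩
  · rw [mul_smul, h1, mul_smul, mul_smul, inv_smul_smul]
    rw [Q_fix hS hq]
  · rw [mul_smul, h5]

/-- an odd power of an element interchanging `a` and `b` which is an involution -/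
theorem exists_swap_invol [Finite G] (hS : Cfsg.IsRankOneSetup G Ω a t Q) {g : G}
    (hga : g • a = t • a) (hgb : g • (t • a) = a) :
    ∃ n : ℕ, (g ^ n) * (g ^ n) = 1 ∧ (g ^ n) • a = t • a := by
  have hD : g * g ∈ stabilizer G a ⊓ stabilizer G (t • a) := by
    refine Subgroup.mem_inf.2 ⟨?_, ?_⟩
    · rw [mem_stabilizer_iff, mul_smul, hga, hgb]
    · rw [mem_stabilizer_iff, mul_smul, hgb, hga]
  obtain ⟨m, hm⟩ := hS.odd_card
  have h1 : (g * g) ^ (2 * m + 1) = 1 := by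
    have := pow_card_eq_one' (G := ↥(stabilizer G a ⊓ stabilizer G (t • a))) (x := ⟨g * g, hD⟩)
    rw [hm] at this
    exact congrArg Subtype.val this
  refine ⟨2 * m + 1, ?_, ?_⟩
  · rw [← pow_add, ← two_mul, pow_mul, pow_two, h1]
  · have h2 : ∀ k : ℕ, ((g * g) ^ k) • a = a := by
      intro k
      exact mem_stabilizer_iff.1 (Subgroup.pow_mem _ (Subgroup.mem_inf.1 hD).1 k)
    rw [pow_succ', pow_mul, pow_two, mul_smul, h2, hga]

/-- a set `X ⊆ D` with three fixed points is centralized by an involution interchanging `a`, `b` -/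
theorem exists_cent_swap [Finite G] (hS : Cfsg.IsRankOneSetup G Ω a t Q) (X : Set G)
    (hX : X ⊆ ((stabilizer G a ⊓ stabilizer G (t • a) : Subgroup G) : Set G))
    (h3 : ∃ b c d : Ω, b ≠ c ∧ b ≠ d ∧ c ≠ d ∧ ∀ x ∈ X, x • b = b ∧ x • c = c ∧ x • d = d) :
    ∃ u ∈ Subgroup.centralizer X, u * u = 1 ∧ u • a = t • a := by
  have ha : ∀ x ∈ X, x • a = a := fun x hx => mem_stabilizer_iff.1 (Subgroup.mem_inf.1 (hX hx)).1
  have hb : ∀ x ∈ X, x • (t • a) = t • a :=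
    fun x hx => mem_stabilizer_iff.1 (Subgroup.mem_inf.1 (hX hx)).2
  obtain ⟨g, hg, hga, hgb⟩ := cent_two_trans hS X h3 ha hb hb ha (b_ne hS).symm (b_ne hS)
  obtain ⟨n, h1, h2⟩ := exists_swap_invol hS hga hgb
  exact ⟨g ^ n, Subgroup.pow_mem _ hg n, h1, h2⟩

/-- every involution interchanging `a` and `b` is conjugate to `t` under an element of `K` -/
theorem swap_conj_t [Finite G] (hS : Cfsg.IsRankOneSetup G Ω a t Q) {u : G} (huu : u * u = 1)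
    (hua : u • a = t • a) :
    ∃ e ∈ Cfsg.invertedBy (stabilizer G a ⊓ stabilizer G (t • a)) t, e⁻¹ * t * e = u := by
  have htt := hS.mul_self
  have hub : u • (t • a) = a := by rw [← hua, ← mul_smul, huu, one_smul]
  have hD : t * u ∈ stabilizer G a ⊓ stabilizer G (t • a) := by
    refine Subgroup.mem_inf.2 ⟨?_, ?_⟩
    · rw [mem_stabilizer_iff, mul_smul, hua, tb hS]
    · rw [mem_stabilizer_iff, mul_smul, hub]
  have hinv : t * (t * u) * t = (t * u)⁻¹ := by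
    rw [mul_inv_rev, inv_eq_self_of_mul_self htt, inv_eq_self_of_mul_self huu, ← mul_assoc, htt, one_mul]
  obtain ⟨m, hm⟩ := hS.odd_card
  have h1 : (t * u) ^ (2 * m + 1) = 1 := by
    have := pow_card_eq_one' (G := ↥(stabilizer G a ⊓ stabilizer G (t • a))) (x := ⟨t * u, hD⟩)
    rw [hm] at this
    exact congrArg Subtype.val this
  have hinv' : t * (t * u) ^ (m + 1) * t = ((t * u) ^ (m + 1))⁻¹ := by
    have : t * (t * u) ^ (m + 1) * t⁻¹ = (t * (t * u) * t⁻¹) ^ (m + 1) := by rw [conj_pow]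
    rw [inv_eq_self_of_mul_self htt] at this
    rw [this, hinv, inv_pow]
  refine ⟨(t * u) ^ (m + 1), (mem_K_iff htt).2 ⟨Subgroup.pow_mem _ hD _, hinv'⟩, ?_⟩
  have h2 : (t * u) ^ (m + 1) * (t * u) ^ (m + 1) = t * u := by
    rw [← pow_add, show m + 1 + (m + 1) = (2 * m + 1) + 1 by ring, pow_succ, h1, one_mul]
  calc ((t * u) ^ (m + 1))⁻¹ * t * (t * u) ^ (m + 1)
      = (t * (t * u) ^ (m + 1) * t) * t * (t * u) ^ (m + 1) := by rw [hinv']
    _ = t * ((t * u) ^ (m + 1) * (t * t) * (t * u) ^ (m + 1)) := by group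
    _ = t * (t * u) := by rw [htt, mul_one, h2]
    _ = u := by rw [← mul_assoc, htt, one_mul]

/-- refined version: the conjugating element is a power of `t * u` -/
theorem swap_conj_t' [Finite G] (hS : Cfsg.IsRankOneSetup G Ω a t Q) {u : G} (huu : u * u = 1)
    (hua : u • a = t • a) :
    ∃ n : ℕ, (t * u) ^ n ∈ stabilizer G a ⊓ stabilizer G (t • a) ∧
      ((t * u) ^ n)⁻¹ * t * (t * u) ^ n = u := by
  have htt := hS.mul_self
  have hub : u • (t • a) = a := by rw [← hua, ← mul_smul, huu, one_smul]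
  have hD : t * u ∈ stabilizer G a ⊓ stabilizer G (t • a) := by
    refine Subgroup.mem_inf.2 ⟨?_, ?_⟩
    · rw [mem_stabilizer_iff, mul_smul, hua, tb hS]
    · rw [mem_stabilizer_iff, mul_smul, hub]
  have hinv : t * (t * u) * t = (t * u)⁻¹ := by
    rw [mul_inv_rev, inv_eq_self_of_mul_self htt, inv_eq_self_of_mul_self huu, ← mul_assoc, htt, one_mul]
  obtain ⟨m, hm⟩ := hS.odd_card
  have h1 : (t * u) ^ (2 * m + 1) = 1 := by
    have := pow_card_eq_one' (G := ↥(stabilizer G a ⊓ stabilizer G (t • a))) (x := ⟨t * u, hD⟩)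
    rw [hm] at this
    exact congrArg Subtype.val this
  have hinv' : t * (t * u) ^ (m + 1) * t = ((t * u) ^ (m + 1))⁻¹ := by
    have : t * (t * u) ^ (m + 1) * t⁻¹ = (t * (t * u) * t⁻¹) ^ (m + 1) := by rw [conj_pow]
    rw [inv_eq_self_of_mul_self htt] at this
    rw [this, hinv, inv_pow]
  refine ⟨m + 1, Subgroup.pow_mem _ hD _, ?_⟩
  have h2 : (t * u) ^ (m + 1) * (t * u) ^ (m + 1) = t * u := by
    rw [← pow_add, show m + 1 + (m + 1) = (2 * m + 1) + 1 by ring, pow_succ, h1, one_mul]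
  calc ((t * u) ^ (m + 1))⁻¹ * t * (t * u) ^ (m + 1)
      = (t * (t * u) ^ (m + 1) * t) * t * (t * u) ^ (m + 1) := by rw [hinv']
    _ = t * ((t * u) ^ (m + 1) * (t * t) * (t * u) ^ (m + 1)) := by group
    _ = t * (t * u) := by rw [htt, mul_one, h2]
    _ = u := by rw [← mul_assoc, htt, one_mul]

end Cfsg.Agent.Lib.Helper9.RO
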