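import Mathlib
import Cfsg.Prelude.Def_Balance
import Cfsg.Agent.Lib.Helper9.PGrp
import Cfsg.Agent.Lib.Helper26.SylIn

set_option autoImplicit false

namespace Cfsg.Agent.Lib.Helper9

open Cfsg.Agent.Lib.Helper26

variable {G : Type*} [Group G]

theorem norm_of_inv {A U : Subgroup G} (h : ∀ b ∈ A, ∀ u ∈ U, b * u * b⁻¹ ∈ U) :
    A ≤ Subgroup.normalizer (U : Set G) := by
  intro b hb
  rw [Subgroup.mem_normalizer_iff]
  intro g
  refine ⟨h b hb g, fun hg => ?_⟩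
  have := h b⁻¹ (A.inv_mem hb) _ hg
  have e : b⁻¹ * (b * g * b⁻¹) * b⁻¹⁻¹ = g := by group
  rwa [e] at this

theorem inv_of_norm {A U : Subgroup G} (h : A ≤ Subgroup.normalizer (U : Set G)) :
    ∀ b ∈ A, ∀ u ∈ U, b * u * b⁻¹ ∈ U :=
  fun b hb u hu => (Subgroup.mem_normalizer_iff.1 (h hb) u).1 hu

theorem mem_signalizerInf {A : Subgroup G} {θ : G → Subgroup G} {c : G} :
    c ∈ Cfsg.signalizerInf A θ ↔ ∀ a ∈ A, a ≠ 1 → c ∈ θ a := by
  unfold Cfsg.signalizerInf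
  rw [Subgroup.mem_iInf]
  exact ⟨fun h a ha ha1 => h ⟨a, ha, ha1⟩, fun h a => h a.1 a.2.1 a.2.2⟩

section
variable {p : ℕ} {A : Subgroup G} {θ : G → Subgroup G}

theorem signalizerInf_le_centralizer (hθ : Cfsg.IsSignalizerFunctor p A θ) :
    Cfsg.signalizerInf A θ ≤ Subgroup.centralizer (A : Set G) := by
  intro c hc
  rw [Subgroup.mem_centralizer_iff]
  intro a ha
  by_cases ha1 : a = 1
  · rw [ha1]; simp
  · have := hθ.1 a ha ha1 (mem_signalizerInf.1 hc a ha ha1)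
    exact (Subgroup.mem_centralizer_singleton_iff.1 this).symm

theorem fam_of_le {U V : Subgroup G} (hU : U ∈ Cfsg.signalizerFamily p A θ) (hVU : V ≤ U)
    (hV : ∀ b ∈ A, ∀ u ∈ V, b * u * b⁻¹ ∈ V) : V ∈ Cfsg.signalizerFamily p A θ := by
  obtain ⟨h1, h2, _, h4⟩ := hU
  refine ⟨Group.isSolvable_of_isSolvable_injective (Subgroup.inclusion_injective hVU),
    fun h => h2 (h.trans (Subgroup.card_dvd_of_le hVU)), hV,
    fun a ha ha1 => (inf_le_inf_right _ hVU).trans (h4 a ha ha1)⟩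

theorem theta_mem_fam (hθ : Cfsg.IsSolvableSignalizerFunctor p A θ) {a : G} (ha : a ∈ A)
    (ha1 : a ≠ 1) : θ a ∈ Cfsg.signalizerFamily p A θ :=
  ⟨hθ.2 a ha ha1, hθ.1.2.1 a ha ha1, hθ.1.2.2.1 a ha ha1, fun b hb hb1 => hθ.1.2.2.2 a ha ha1 b hb hb1⟩

theorem fam_inf_centralizer_le {U : Subgroup G} (hU : U ∈ Cfsg.signalizerFamily p A θ) :
    U ⊓ Subgroup.centralizer (A : Set G) ≤ Cfsg.signalizerInf A θ := by
  intro x hx
  rw [mem_signalizerInf]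
  intro a ha ha1
  apply hU.2.2.2 a ha ha1
  refine Subgroup.mem_inf.2 ⟨hx.1, ?_⟩
  rw [Subgroup.mem_centralizer_singleton_iff]
  exact ((Subgroup.mem_centralizer_iff.1 hx.2) a ha).symm

theorem fam_conj (hθ : Cfsg.IsSignalizerFunctor p A θ) {U : Subgroup G}
    (hU : U ∈ Cfsg.signalizerFamily p A θ) {c : G} (hc : c ∈ Cfsg.signalizerInf A θ) :
    cj c U ∈ Cfsg.signalizerFamily p A θ := by
  obtain ⟨h1, h2, h3, h4⟩ := hU
  have hcA := Subgroup.mem_centralizer_iff.1 (signalizerInf_le_centralizer hθ hc)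
  refine ⟨?_, ?_, ?_, ?_⟩
  · exact Group.isSolvable_of_surjective
      (MonoidHom.subgroupMap_surjective (MulAut.conj c).toMonoidHom U)
  · rw [card_cj]; exact h2
  · intro b hb u hu
    rw [mem_cj] at hu ⊢
    have e : c⁻¹ * (b * u * b⁻¹) * c = b * (c⁻¹ * u * c) * b⁻¹ := by
      have hbc : b * c = c * b := hcA b hb
      have hbc' : c⁻¹ * b = b * c⁻¹ := by
        calc c⁻¹ * b = c⁻¹ * (b * c) * c⁻¹ := by group
          _ = b * c⁻¹ := by rw [hbc]; group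
      have hbc'' : b⁻¹ * c = c * b⁻¹ := by
        calc b⁻¹ * c = b⁻¹ * (c * b) * b⁻¹ := by group
          _ = c * b⁻¹ := by rw [← hbc]; group
      calc c⁻¹ * (b * u * b⁻¹) * c = (c⁻¹ * b) * u * (b⁻¹ * c) := by group
        _ = b * (c⁻¹ * u * c) * b⁻¹ := by rw [hbc', hbc'']; group
    rw [e]
    exact h3 b hb _ hu
  · intro a ha ha1 x hx
    obtain ⟨hx1, hx2⟩ := Subgroup.mem_inf.1 hx
    rw [mem_cj] at hx1
    rw [Subgroup.mem_centralizer_singleton_iff] at hx2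
    have hac : a * c = c * a := hcA a ha
    have hcθ := mem_signalizerInf.1 hc a ha ha1
    have hu : c⁻¹ * x * c ∈ θ a := by
      apply h4 a ha ha1
      refine Subgroup.mem_inf.2 ⟨hx1, ?_⟩
      rw [Subgroup.mem_centralizer_singleton_iff]
      have hac' : a * c⁻¹ = c⁻¹ * a := by
        calc a * c⁻¹ = c⁻¹ * (c * a) * c⁻¹ := by group
          _ = c⁻¹ * a := by rw [← hac]; group
      calc c⁻¹ * x * c * a = c⁻¹ * x * (a * c) := by rw [hac]; group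
        _ = c⁻¹ * (x * a) * c := by group
        _ = (c⁻¹ * a) * x * c := by rw [hx2]; group
        _ = a * (c⁻¹ * x * c) := by rw [← hac']; group
    have : x = c * (c⁻¹ * x * c) * c⁻¹ := by group
    rw [this]
    exact (θ a).mul_mem ((θ a).mul_mem hcθ hu) ((θ a).inv_mem hcθ)

/-- maximal `q`-members of the family -/
def SigMax (p : ℕ) (A : Subgroup G) (θ : G → Subgroup G) (q : ℕ) (Q : Subgroup G) : Prop :=
  Q ∈ Cfsg.signalizerFamily p A θ ∧ IsPGroup q Q ∧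
    ∀ R ∈ Cfsg.signalizerFamily p A θ, IsPGroup q ↥R → Q ≤ R → R = Q

/-- conjugacy under the intersection of the `θ a` -/
def SigConj (A : Subgroup G) (θ : G → Subgroup G) (Q₁ Q₂ : Subgroup G) : Prop :=
  ∃ c ∈ Cfsg.signalizerInf A θ, cj c Q₁ = Q₂

theorem SigConj.refl (Q : Subgroup G) : SigConj A θ Q Q := ⟨1, Subgroup.one_mem _, cj_one Q⟩

theorem SigConj.symm {Q₁ Q₂ : Subgroup G} (h : SigConj A θ Q₁ Q₂) : SigConj A θ Q₂ Q₁ := by
  obtain ⟨c, hc, rfl⟩ := h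
  exact ⟨c⁻¹, Subgroup.inv_mem _ hc, cj_inv_cj c Q₁⟩

theorem SigConj.trans {Q₁ Q₂ Q₃ : Subgroup G} (h : SigConj A θ Q₁ Q₂) (h' : SigConj A θ Q₂ Q₃) :
    SigConj A θ Q₁ Q₃ := by
  obtain ⟨c, hc, rfl⟩ := h
  obtain ⟨d, hd, rfl⟩ := h'
  exact ⟨d * c, Subgroup.mul_mem _ hd hc, (cj_cj d c Q₁).symm⟩

theorem exists_sigMax [Finite G] {q : ℕ} {S : Subgroup G} (hS : S ∈ Cfsg.signalizerFamily p A θ)
    (hSq : IsPGroup q S) : ∃ T, SigMax p A θ q T ∧ S ≤ T := by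
  have hfin : {R : Subgroup G | R ∈ Cfsg.signalizerFamily p A θ ∧ IsPGroup q R ∧ S ≤ R}.Finite :=
    Set.toFinite _
  obtain ⟨T, hT, hmax⟩ := hfin.exists_maximal ⟨S, hS, hSq, le_rfl⟩
  refine ⟨T, ⟨hT.1, hT.2.1, fun R hR hRq hTR => ?_⟩, hT.2.2⟩
  exact le_antisymm (hmax ⟨hR, hRq, hT.2.2.trans hTR⟩ hTR) hTR

theorem SigMax.conj (hθ : Cfsg.IsSignalizerFunctor p A θ) {q : ℕ} {T : Subgroup G}
    (hT : SigMax p A θ q T) {c : G} (hc : c ∈ Cfsg.signalizerInf A θ) :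
    SigMax p A θ q (cj c T) := by
  refine ⟨fam_conj hθ hT.1 hc, hT.2.1.map _, fun R hR hRq hTR => ?_⟩
  have h1 : T ≤ cj c⁻¹ R := by
    have := cj_mono (g := c⁻¹) hTR
    rwa [cj_inv_cj] at this
  have h2 := hT.2.2 _ (fam_conj hθ hR (Subgroup.inv_mem _ hc)) (hRq.map _) h1
  rw [← h2, cj_cj_inv]

end

end Cfsg.Agent.Lib.Helper9
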